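import Mathlib
import Cfsg.Agent.Ree.Gen
import Cfsg.Agent.Chev.SzMult

/-!
# Central extensions of the small Ree groups
-/

set_option autoImplicit false

namespace Cfsg.Agent.Ree

open MulAction Cfsg.Agent.Chev
open scoped commutatorElement

theorem eq_one_of_add_of_neg {K Γ : Type*} [Field K] [Group Γ] (h3 : (3 : K) = 0) (f : K → Γ)
    (h1 : ∀ x y, f (x + y) = f x * f y) (h2 : ∀ x, f (-x) = f x) (x : K) : f x = 1 := by
  have h0 : f 0 = 1 := by simpa using h1 0 0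
  have e1 := h1 x (-x)
  have e2 := h1 x x
  rw [add_neg_cancel, h0, h2] at e1
  rw [← e1, show x + x = -x by linear_combination x * h3, h2] at e2
  exact e2

namespace Sys

variable {K : Type*} [Field K] {m : ℕ} {G : Type*} [Group G] (R : Sys K m G)

local notation "q" => 3 ^ (2 * m + 1)

include R

theorem exists_inv_not_additive (hm : 1 ≤ m) :
    ∃ x : K, x ≠ 0 ∧ x + 1 ≠ 0 ∧ (x + 1)⁻¹ ≠ x⁻¹ + 1⁻¹ := by
  obtain ⟨x, hx⟩ := R.exists_cube_ne hm
  have h3 := R.three_eq_zero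
  have h0 : x ≠ 0 := by grind
  have h1 : x + 1 ≠ 0 := by grind
  refine ⟨x, h0, h1, fun h => ?_⟩
  field_simp at h
  have : (x - 1) ^ 2 = 0 := by grind
  grind

theorem exists_weight_not_additive (hm : 1 ≤ m) : ∃ x : K, x ≠ 0 ∧ x + 1 ≠ 0 ∧
    ((x + 1) ^ 2 * R.σ (x + 1))⁻¹ ≠ (x ^ 2 * R.σ x)⁻¹ + (1 ^ 2 * R.σ 1)⁻¹ := by
  by_contra h
  push Not at h
  have h3 := R.three_eq_zero
  set w : K → K := fun x => (x ^ 2 * R.σ x)⁻¹ with hw
  have w0 : ∀ x, x ≠ 0 → w x * x ^ 2 * R.σ x = 1 := fun x hx => by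
    rw [mul_assoc]; exact inv_mul_cancel₀ (by simp [hx])
  have w1 : ∀ x, x ^ 3 ≠ x → w (x + 1) = w x + 1 := fun x hx => by
    simpa [hw] using h x (by grind) (by grind)
  have w2 : ∀ x, x ^ 3 ≠ x → w (x - 1) = w x - 1 := fun x hx => by
    have := w1 (x - 1) (by grind)
    rw [sub_add_cancel] at this
    rw [this, add_sub_cancel_right]
  have E : ∀ x, x ^ 3 ≠ x → x ^ 2 + 2 * x * (R.σ x + w x) + R.σ x * w x = -1 ∧
      x ^ 2 * (R.σ x + w x) + 2 * x * R.σ x * w x + (w x + 2 * x + R.σ x) = 0 := fun x hx => by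
    have e0 := w0 x (by grind)
    have e1 := w0 (x + 1) (by grind)
    have e2 := w0 (x - 1) (by grind)
    rw [w1 x hx, map_add, map_one] at e1
    rw [w2 x hx, map_sub, map_one] at e2
    constructor
    · linear_combination 2 * e0 - e1 - e2 +
        (x ^ 2 + 2 * x * (R.σ x + w x) + R.σ x * w x + 1) * h3
    · linear_combination e2 - e1 +
        (x ^ 2 * (R.σ x + w x) + 2 * x * R.σ x * w x + (w x + 2 * x + R.σ x)) * h3
  have P : ∀ x, x ^ 3 ≠ x → (w x + 2 * x + R.σ x) ^ 2 = 1 := fun x hx => by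
    have hx2 : (x ^ 2) ^ 3 ≠ x ^ 2 := fun e => by
      have e1 : (x ^ 3 - x) * x * (x ^ 2 + 1) = 0 := by linear_combination e
      rcases mul_eq_zero.1 e1 with e2 | e2
      · grind
      · exact R.not_isSquare_neg_one ⟨x, by linear_combination -e2⟩
    have e0 := w0 x (by grind)
    obtain ⟨e1, e2⟩ := E x hx
    have e3 := (E _ hx2).1
    have e4 : w (x ^ 2) = w x ^ 2 := by simp only [hw, map_pow, ← mul_pow, inv_pow]
    rw [e4, map_pow] at e3
    grind
  obtain ⟨x, hx⟩ := R.exists_cube_ne hm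
  have p0 := P x hx
  have p1 := P (x + 1) (by grind)
  have p2 := P (x - 1) (by grind)
  rw [w1 x hx, map_add, map_one] at p1
  rw [w2 x hx, map_sub, map_one] at p2
  grind

theorem commutator_x (t u v s p r : K) : ∃ w, ⁅R.x t u v, R.x s p r⁆ =
    R.x 0 (s * R.σ t - t * R.σ s) w := by
  rw [commutatorElement_def, R.x_conj, R.x_inv, R.x_mul]
  exact ⟨_, R.x_congr (by ring) (by rw [map_neg]; ring) rfl⟩

variable {Γ : Type*} [Group Γ] {σ : Γ →* G}

theorem pow_eq_one_of_mem_commutator (hm : 1 ≤ m) (hs : Function.Surjective σ)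
    (hc : σ.ker ≤ Subgroup.center Γ) {z : Γ} (hz : z ∈ σ.ker)
    (hz' : z ∈ ⁅R.U.comap σ, R.U.comap σ⁆) : z ^ (q - 1) = 1 := by
  classical
  have h3 := R.three_eq_zero
  choose s hs using hs
  have cen : ∀ {x : Γ}, σ x = 1 → ∀ y, y * x = x * y := fun h =>
    Subgroup.mem_center_iff.1 (hc h)
  have cm_conj : ∀ k g h : G, ⁅s (k * g * k⁻¹), s (k * h * k⁻¹)⁆ = s k * ⁅s g, s h⁆ * (s k)⁻¹ := by
    intro k g h
    rw [conjugate_commutatorElement]
    exact commutator_eq_of_map_eq hc (by simp [hs]) (by simp [hs])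
  have cm_left : ∀ g g' h : G, ⁅s (g * g'), s h⁆ = s g * ⁅s g', s h⁆ * (s g)⁻¹ * ⁅s g, s h⁆ := by
    intro g g' h
    rw [commutator_eq_of_map_eq hc (x' := s g * s g') (y' := s h) (by simp [hs]) rfl]
    simp only [commutatorElement_def]; group
  have cm_right : ∀ g h h' : G, ⁅s g, s (h * h')⁆ = ⁅s g, s h⁆ * (s h * ⁅s g, s h'⁆ * (s h)⁻¹) := by
    intro g h h'
    rw [commutator_eq_of_map_eq hc (x' := s g) (y' := s h * s h') rfl (by simp [hs])]
    simp only [commutatorElement_def]; group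
  have cen' : ∀ {x : Γ}, σ x = 1 → ∀ y, y * x * y⁻¹ = x := fun h y => by
    rw [cen h, mul_inv_cancel_right]
  obtain ⟨x₁, a1, a2, a3⟩ := R.exists_inv_not_additive hm
  obtain ⟨x₂, b1, b2, b3⟩ := R.exists_weight_not_additive hm
  have xz : ∀ a b, R.x 0 0 (a + b) = R.x 0 0 a * R.x 0 0 b := fun a b => by simp [R.x_mul]
  have xw : ∀ a b, R.x 0 (a + b) 0 = R.x 0 a 0 * R.x 0 b 0 := fun a b => by simp [R.x_mul]
  have xo : ∀ a b, R.x 0 a b = R.x 0 a 0 * R.x 0 0 b := fun a b => by simp [R.x_mul]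
  have xu : ∀ t a b, R.x t a b = R.x t 0 0 * R.x 0 a b := fun t a b => by simp [R.x_mul]
  have k1 : ∀ a b c d : K, σ ⁅s (R.x a b c), s (R.x 0 0 d)⁆ = 1 := fun a b c d => by
    rw [map_commutatorElement, hs, hs, commutatorElement_eq_one_iff_mul_comm]
    simp [R.x_mul, add_comm]
  have k2 : ∀ a b c d : K, σ ⁅s (R.x 0 a b), s (R.x 0 c d)⁆ = 1 := fun a b c d => by
    rw [map_commutatorElement, hs, hs, commutatorElement_eq_one_iff_mul_comm]
    simp [R.x_mul, add_comm]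
  have step1 : ∀ a b : K, ⁅s (R.x 0 0 a), s (R.x 0 0 b)⁆ = 1 := by
    refine noform _ (fun x => x⁻¹) (fun x x' y => ?_) (fun y y' => ?_) (fun x y hx => ?_) a1 a2 a3
    · rw [xz, cm_left, cen' (k1 _ _ _ _), cen (k1 _ _ _ _)]
    · rw [xz, cm_right, cen' (k1 _ _ _ _)]
    · obtain ⟨l, hl⟩ := R.exists_sq_mul_σ (inv_ne_zero hx)
      rw [← cen' (k1 0 0 x y) (s (R.h l)), ← cm_conj, R.h_conj, R.h_conj, hl, inv_mul_cancel₀ hx,
        mul_zero, mul_zero]
  have step2 : ∀ a b : K, ⁅s (R.x 0 a 0), s (R.x 0 0 b)⁆ = 1 := fun a => by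
    refine eq_one_of_add_of_neg h3 _ (fun y y' => ?_) fun y => ?_
    · rw [xz, cm_right, cen' (k1 _ _ _ _)]
    · rw [← cen' (k1 0 a 0 y) (s R.a), ← cm_conj, R.a_conj, R.a_conj, neg_zero]
  have step2' : ∀ a b c d : K, ⁅s (R.x a b c), s (R.x 0 0 d)⁆ = ⁅s (R.x a 0 0), s (R.x 0 0 d)⁆ := by
    intro a b c d
    rw [xu, cm_left, xo b, cm_left, step1, step2]; simp
  have step3 : ∀ a b : K, ⁅s (R.x a 0 0), s (R.x 0 0 b)⁆ = 1 := by
    refine noform _ (fun x => (x ^ 2 * R.σ x)⁻¹) (fun x x' y => ?_) (fun y y' => ?_)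
      (fun x y hx => ?_) b1 b2 b3
    · rw [← step2', ← R.x_mul x 0 0 x' 0 0, cm_left, cen' (k1 _ _ _ _), cen (k1 _ _ _ _)]
    · rw [xz, cm_right, cen' (k1 _ _ _ _)]
    · rw [← cen' (k1 x 0 0 y) (s (R.h (Units.mk0 x hx)⁻¹)), ← cm_conj, R.h_conj, R.h_conj]
      simp [hx, mul_comm]
  have step3' : ∀ a b c d : K, ⁅s (R.x a b c), s (R.x 0 0 d)⁆ = 1 := fun a b c d => by
    rw [step2', step3]
  have step4 : ∀ a b : K, ⁅s (R.x 0 a 0), s (R.x 0 b 0)⁆ = 1 := by
    have e1 : ∀ x x' y, ⁅s (R.x 0 (x + x') 0), s (R.x 0 y 0)⁆ =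
        ⁅s (R.x 0 x 0), s (R.x 0 y 0)⁆ * ⁅s (R.x 0 x' 0), s (R.x 0 y 0)⁆ := fun x x' y => by
      rw [xw, cm_left, cen' (k2 _ _ _ _), cen (k2 _ _ _ _)]
    have e2 : ∀ x y y', ⁅s (R.x 0 x 0), s (R.x 0 (y + y') 0)⁆ =
        ⁅s (R.x 0 x 0), s (R.x 0 y 0)⁆ * ⁅s (R.x 0 x 0), s (R.x 0 y' 0)⁆ := fun x y y' => by
      rw [xw, cm_right, cen' (k2 _ _ _ _)]
    have e3 : ∀ x y, ⁅s (R.x 0 (-x) 0), s (R.x 0 (-y) 0)⁆ = ⁅s (R.x 0 x 0), s (R.x 0 y 0)⁆ := by
      intro x y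
      have f1 := e1 x (-x) (-y)
      have f2 := e2 x (-y) y
      have f3 := e1 0 0 (-y)
      have f4 := e2 x 0 0
      rw [add_zero, left_eq_mul] at f3 f4
      rw [add_neg_cancel, f3] at f1
      rw [neg_add_cancel, f4] at f2
      exact mul_left_cancel (f1.symm.trans f2)
    refine noform _ (fun x => x⁻¹) e1 (e2 1) (fun x y hx => ?_) a1 a2 a3
    obtain ⟨l, hl | hl⟩ := R.exists_mul_σ (inv_ne_zero hx)
    · rw [← cen' (k2 x 0 y 0) (s (R.h l)), ← cm_conj, R.h_conj, R.h_conj, hl, inv_mul_cancel₀ hx,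
        mul_zero, mul_zero]
    · rw [← cen' (k2 x 0 y 0) (s (R.h l)), ← cm_conj, R.h_conj, R.h_conj, hl, neg_mul, neg_mul,
        inv_mul_cancel₀ hx, mul_zero, mul_zero, e3]
  have step4' : ∀ a b c d : K, ⁅s (R.x 0 a b), s (R.x 0 c d)⁆ = 1 := fun a b c d => by
    rw [xo c, cm_right, step3', ← commutatorElement_inv, xo a, cm_right, step3', step4]
    simp
  let O : Subgroup G :=
    { carrier := {g | ∃ u v, g = R.x 0 u v}
      one_mem' := ⟨0, 0, R.x_zero.symm⟩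
      mul_mem' := by
        rintro _ _ ⟨u, v, rfl⟩ ⟨u', v', rfl⟩
        exact ⟨_, _, by rw [R.x_mul, add_zero]⟩
      inv_mem' := by
        rintro _ ⟨u, v, rfl⟩
        exact ⟨_, _, by rw [R.x_inv, neg_zero]⟩ }
  let Z : Subgroup Γ := O.comap σ
  let _ : CommGroup Z := { (inferInstance : Group Z) with
    mul_comm := fun a b => Subtype.ext (by
      obtain ⟨u, v, e⟩ := a.2
      obtain ⟨u', v', e'⟩ := b.2
      rw [Subgroup.coe_mul, Subgroup.coe_mul, ← commutatorElement_eq_one_iff_mul_comm,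
        commutator_eq_of_map_eq hc (e.trans (hs _).symm) (e'.trans (hs _).symm), step4']) }
  let cj : Kˣ → Z →* Z := fun l =>
    { toFun := fun z => ⟨s (R.h l) * z * (s (R.h l))⁻¹, by
        obtain ⟨u, v, e⟩ := z.2
        exact ⟨_, _, by rw [map_mul, map_mul, map_inv, hs, e, R.h_conj, mul_zero]⟩⟩
      map_one' := by ext; simp
      map_mul' := fun a b => by ext; simp [mul_assoc] }
  have hcj : ∀ l z, (cj l z : Γ) = s (R.h l) * z * (s (R.h l))⁻¹ := fun _ _ => rfl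
  have := R.finiteK
  have := Fintype.ofFinite Kˣ
  let π : Z →* Z := ∏ l, cj l
  have hπ : ∀ z, π z = ∏ l, cj l z := fun z => MonoidHom.finsetProd_apply _ _ _
  have π1 : ∀ l z, π (cj l z) = π z := by
    intro l z
    rw [hπ, hπ, ← Equiv.prod_comp (Equiv.mulRight l) (fun k => cj k z)]
    refine Finset.prod_congr rfl fun k _ => Subtype.ext ?_
    rw [hcj, hcj, hcj, conj_eq_of_map_eq hc (x := s (R.h (Equiv.mulRight l k)))
      (x' := s (R.h k) * s (R.h l)) (by simp [hs])]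
    group
  have k3 : ∀ t u v t' u' v' : K, ⁅s (R.x t u v), s (R.x t' u' v')⁆ ∈ Z := fun t u v t' u' v' => by
    obtain ⟨w, hw⟩ := R.commutator_x t u v t' u' v'
    exact ⟨_, w, by rw [map_commutatorElement, hs, hs, hw]⟩
  let c : K → K → K → K → K → K → Z := fun t u v t' u' v' => ⟨_, k3 t u v t' u' v'⟩
  have k4 : ∀ t u v u' v' a b d : K, s (R.x a b d) * ⁅s (R.x t u v), s (R.x 0 u' v')⁆ *
      (s (R.x a b d))⁻¹ = ⁅s (R.x t u v), s (R.x 0 u' v')⁆ := fun t u v u' v' a b d => by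
    obtain ⟨w, hw⟩ := R.commutator_x t u v 0 u' v'
    rw [mul_inv_eq_iff_eq_mul, ← commutatorElement_eq_one_iff_mul_comm,
      commutator_eq_of_map_eq hc rfl (y' := s (R.x 0 0 w))
        (by rw [map_commutatorElement, hs, hs, hs, hw]; simp), step3']
  have step5 : ∀ t u v u' v' : K, π (c t u v 0 u' v') = 1 := fun t u v u' v' => by
    have e1 : ∀ t u v, c t u v 0 u' v' = c t 0 0 0 u' 0 := fun t u v => Subtype.ext (by
      change ⁅_, _⁆ = ⁅_, _⁆
      rw [xu, cm_left, step4', xo u', cm_right, step3']; simp)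
    rw [e1]
    refine eq_one_of_add_of_neg h3 (fun t => π (c t 0 0 0 u' 0)) (fun y y' => ?_) (fun y => ?_) t
    · rw [← map_mul, mul_comm, ← e1 (y + y') (0 + 0 - y * R.σ y')
        (0 + 0 - y' * 0 + y * y' * R.σ y' - y ^ 2 * R.σ y'), ← e1 y 0 0, ← e1 y' 0 0]
      congr 1; apply Subtype.ext
      change ⁅_, _⁆ = ⁅_, _⁆ * ⁅_, _⁆
      rw [← R.x_mul, cm_left, k4]
    · rw [← π1 (-1) (c y 0 0 0 u' 0)]; congr 1; apply Subtype.ext
      rw [hcj]
      change ⁅_, _⁆ = _ * ⁅_, _⁆ * _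
      rw [← cm_conj, ← a, R.a_conj, R.a_conj, neg_zero]
  have conjπ : ∀ a b d (y : Z), ∃ y' : Z,
      (y' : Γ) = s (R.x a b d) * y * (s (R.x a b d))⁻¹ ∧ π y' = π y := fun a b d y => by
    obtain ⟨u, v, e⟩ := y.2
    refine ⟨c a b d 0 u v * y, ?_, by rw [map_mul, step5, one_mul]⟩
    change ⁅_, _⁆ * _ = _
    rw [← commutator_eq_of_map_eq hc rfl (e.trans (hs _).symm), commutatorElement_def,
      inv_mul_cancel_right]
  have left : ∀ t u v a b d t' u' v', π (c (t + a) (u + b - t * R.σ a)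
      (v + d - a * u + t * a * R.σ a - t ^ 2 * R.σ a) t' u' v') =
      π (c t u v t' u' v') * π (c a b d t' u' v') := fun t u v a b d t' u' v' => by
    obtain ⟨y, e1, e2⟩ := conjπ t u v (c a b d t' u' v')
    rw [← e2, ← map_mul, mul_comm _ y]
    congr 1; apply Subtype.ext
    rw [Subgroup.coe_mul, e1]
    exact (congrArg (fun g => ⁅s g, s (R.x t' u' v')⁆) (R.x_mul ..).symm).trans (cm_left ..)
  have swap : ∀ t u v t' u' v', π (c t u v t' u' v') = (π (c t' u' v' t u v))⁻¹ :=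
    fun t u v t' u' v' => by
      rw [← map_inv]
      congr 1; apply Subtype.ext
      exact (commutatorElement_inv _ _).symm
  have red : ∀ t u v t' u' v', π (c t u v t' u' v') = π (c t 0 0 t' u' v') :=
    fun t u v t' u' v' => by
      have := left t 0 0 0 u v t' u' v'
      rw [swap 0, step5, inv_one, mul_one] at this
      simpa using this
  have step6 : ∀ a b : K, π (c a 0 0 b 0 0) = 1 := by
    have e1 : ∀ x x' y, π (c (x + x') 0 0 y 0 0) = π (c x 0 0 y 0 0) * π (c x' 0 0 y 0 0) :=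
      fun x x' y => by rw [← left]; exact (red ..).symm
    refine noform _ (fun x => x⁻¹) e1 (fun y y' => ?_) (fun x y hx => ?_) a1 a2 a3
    · rw [swap, e1, swap y, swap y', mul_inv, inv_inv, inv_inv]
    · rw [← π1 (Units.mk0 x hx)⁻¹]; congr 1; apply Subtype.ext
      rw [hcj]
      change _ * ⁅_, _⁆ * _ = ⁅_, _⁆
      rw [← cm_conj, R.h_conj, R.h_conj]
      simp [hx]
  have step7 : ⁅R.U.comap σ, R.U.comap σ⁆ ≤ π.ker.map Z.subtype := by
    rw [Subgroup.commutator_le]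
    rintro x ⟨t, u, v, e⟩ y ⟨t', u', v', e'⟩
    refine ⟨c t u v t' u' v', ?_, ?_⟩
    · rw [SetLike.mem_coe, MonoidHom.mem_ker, red, swap, red, step6, inv_one]
    · exact (commutator_eq_of_map_eq hc (e.trans (hs _).symm) (e'.trans (hs _).symm)).symm
  obtain ⟨w, hw, rfl⟩ := step7 hz'
  have h1 : ∀ l, cj l w = w := fun l => Subtype.ext (cen' hz _)
  have h2 : π w = 1 := hw
  rw [hπ] at h2
  simp only [h1, Finset.prod_const, Finset.card_univ] at h2
  rw [← Nat.card_eq_fintype_card, R.card_units] at h2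
  exact congrArg Subtype.val h2

theorem commutator_comap_eq_bot (hs : Function.Surjective σ) (hc : σ.ker ≤ Subgroup.center Γ)
    {P : Subgroup G} (hP : IsPGroup 2 P) : ⁅P.comap σ, P.comap σ⁆ = ⊥ := by
  have := R.finiteG
  choose s hs using hs
  have cen' : ∀ {x : Γ}, σ x = 1 → ∀ y, y * x * y⁻¹ = x := fun h y => by
    rw [Subgroup.mem_center_iff.1 (hc h), mul_inv_cancel_right]
  have k1 : ∀ {x y : Γ}, σ x * σ y = σ y * σ x → σ ⁅x, y⁆ = 1 := fun h => by
    rwa [map_commutatorElement, commutatorElement_eq_one_iff_mul_comm]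
  have right : ∀ x y y' : Γ, σ x * σ y' = σ y' * σ x → ⁅x, y * y'⁆ = ⁅x, y⁆ * ⁅x, y'⁆ :=
    fun x y y' h => by
      rw [← cen' (k1 h) y]
      simp only [commutatorElement_def]; group
  have key : ∀ x y : Γ, σ x ≠ 1 → σ x * σ x = 1 → σ y ≠ 1 → σ y * σ y = 1 →
      σ x * σ y = σ y * σ x → σ y ≠ σ x → ⁅x, y⁆ = ⁅s R.a, s R.n⁆ := by
    intro x y h1 h2 h3 h4 h5 h6
    obtain ⟨k, e1, e2⟩ := R.exists_conj_pair h1 h2 h3 h4 h5 h6
    rw [← cen' (k1 h5) (s k), conjugate_commutatorElement]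
    rcases e2 with e2 | e2
    · exact commutator_eq_of_map_eq hc (by simp [hs, e1]) (by simp [hs, e2])
    · rw [commutator_eq_of_map_eq hc (x' := s R.a) (y' := s R.a * s R.n) (by simp [hs, e1])
        (by simp [hs, e2]), right _ _ _ (by simp [hs, R.a_comm_n]), commutatorElement_self, one_mul]
  have hκ : ⁅s R.a, s R.n⁆ = 1 := by
    obtain ⟨S, hS⟩ := R.isPGroup_V.exists_le_sylow
    obtain ⟨e, he, he'⟩ := R.exists_mem_sylow_not_mem_W (S := S)
    have hV : ∀ v ∈ R.V, e ≠ v := fun v hv h => he' (h ▸ R.V_le_W hv)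
    have ha := hS R.a_mem_V
    have hn := hS R.n_mem_V
    have f1 := key (s R.a) (s e) (by simpa [hs] using R.a_ne_one) (by simp [hs, R.a_mul_a])
      (by simpa [hs] using hV 1 (one_mem _))
      (by simpa [hs] using R.mul_self_of_isPGroup S.isPGroup' he)
      (by simpa [hs] using R.comm_of_isPGroup S.isPGroup' ha he)
      (by simpa [hs] using hV _ R.a_mem_V)
    have f2 := key (s R.a) (s R.n * s e) (by simpa [hs] using R.a_ne_one) (by simp [hs, R.a_mul_a])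
      (by simpa [hs, mul_eq_one_iff_inv_eq] using (hV _ (inv_mem R.n_mem_V)).symm)
      (by simpa [hs] using R.mul_self_of_isPGroup S.isPGroup' (mul_mem hn he))
      (by simpa [hs] using R.comm_of_isPGroup S.isPGroup' ha (mul_mem hn he))
      (by simpa [hs, ← eq_inv_mul_iff_mul_eq] using hV _ (mul_mem (inv_mem R.n_mem_V) R.a_mem_V))
    rw [right _ _ _ (by simpa [hs] using R.comm_of_isPGroup S.isPGroup' ha he), f1,
      mul_eq_left] at f2
    exact f2
  rw [eq_bot_iff, Subgroup.commutator_le]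
  intro x hx y hy
  rw [Subgroup.mem_bot]
  by_cases h1 : σ x = 1
  · rw [commutator_eq_of_map_eq hc (x' := 1) (y' := y) (by simp [h1]) rfl]; simp
  by_cases h2 : σ y = 1
  · rw [commutator_eq_of_map_eq hc (x' := x) (y' := 1) rfl (by simp [h2])]; simp
  by_cases h3 : σ y = σ x
  · rw [commutator_eq_of_map_eq hc rfl h3]; simp
  rw [key x y h1 (R.mul_self_of_isPGroup hP hx) h2 (R.mul_self_of_isPGroup hP hy)
    (R.comm_of_isPGroup hP hx hy) h3, hκ]

theorem ker_eq_bot_of_stem (hρ : HasRep K G) (hm : 1 ≤ m) [Finite Γ] (hσ : IsStemExtension σ) :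
    σ.ker = ⊥ := by
  have := R.finiteG
  rw [eq_bot_iff]
  intro z hz
  rw [Subgroup.mem_bot, ← orderOf_eq_one_iff]
  by_contra h
  obtain ⟨p, hp, hpz⟩ := Nat.exists_prime_and_dvd h
  have := Fact.mk hp
  by_cases h3 : p = 3
  · subst h3
    have h3 := R.pow_eq_one_of_mem_commutator hm hσ.1 hσ.2.1 (σ.ker.pow_mem hz _)
      (FGS.pow_index_mem_commutator_of_mem_center _ (hσ.2.1 hz) (hσ.2.2 hz))
    rw [← pow_mul, ← orderOf_dvd_iff_pow_eq_one, Subgroup.index_comap_of_surjective _ hσ.1] at h3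
    exact (hp.dvd_mul.1 (hpz.trans h3)).elim R.not_three_dvd_index_U (not_three_dvd_q_sub_one m)
  obtain ⟨P⟩ : Nonempty (Sylow p G) := inferInstance
  have h4 := FGS.pow_index_mem_commutator_of_mem_center ((P : Subgroup G).comap σ)
    (hσ.2.1 hz) (hσ.2.2 hz)
  have h5 : ⁅(P : Subgroup G).comap σ, (P : Subgroup G).comap σ⁆ = ⊥ := by
    by_cases h2 : p = 2
    · subst h2
      exact R.commutator_comap_eq_bot hσ.1 hσ.2.1 P.isPGroup'
    have := R.isCyclic_of_isPGroup hρ (by have := hp.two_le; omega) P.isPGroup'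
    have h4 := ((σ.subgroupComap P).isMulCommutative_of_isCyclic_of_ker_le_center
      (FGS.subgroupComap_ker_le_center hσ.2.1 _)).is_comm.comm
    rw [eq_bot_iff, Subgroup.commutator_le]
    intro x hx y hy
    rw [Subgroup.mem_bot, commutatorElement_eq_one_iff_mul_comm]
    exact congrArg Subtype.val (h4 ⟨x, hx⟩ ⟨y, hy⟩)
  rw [h5, Subgroup.mem_bot, ← orderOf_dvd_iff_pow_eq_one,
    Subgroup.index_comap_of_surjective _ hσ.1] at h4
  exact P.not_dvd_index (hpz.trans h4)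

end Sys

end Cfsg.Agent.Ree
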